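import Cfsg.Agent.Lib.Helper96.SpRow.QKBase

set_option autoImplicit false
set_option linter.unusedSectionVars false

/-! # SpRow farm (helper94, S5789), piece [QK8] -/

namespace Cfsg.Agent.Lib.Helper96.SpRow

open Cfsg Cfsg.Geo Matrix Cfsg.Agent.Lib.Helper94.SpRow
open scoped MatrixGroups

variable {F : Type*} [Field F]

theorem QK8_proper (u p : Fin 2 ⊕ Fin 2 → F) : ∃ a : Fin 2 ⊕ Fin 2 → F,
    a ∉ Submodule.span F ({u, p} : Set (Fin 2 ⊕ Fin 2 → F)) := by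
  classical
  by_contra hcon
  push Not at hcon
  have htop : Submodule.span F ({u, p} : Set (Fin 2 ⊕ Fin 2 → F)) = ⊤ := eq_top_iff.2 fun a _ => hcon a
  have h1 := finrank_span_finset_le_card (R := F) ({u, p} : Finset (Fin 2 ⊕ Fin 2 → F))
  rw [Finset.coe_pair, Set.finrank, htop, finrank_top, Module.finrank_fintype_fun_eq_card] at h1
  have h2 : ({u, p} : Finset (Fin 2 ⊕ Fin 2 → F)).card ≤ 2 := Finset.card_le_two
  have h3 : Fintype.card (Fin 2 ⊕ Fin 2) = 4 := by simp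
  omega

theorem exists_outside (h2 : (2 : F) = 0)
    {K : Subalgebra F (Matrix (Fin 2 ⊕ Fin 2) (Fin 2 ⊕ Fin 2) F)} (D : KD K)
    (u w : Fin 2 ⊕ Fin 2 → F) (hu : u ≠ 0) (hw : w ≠ 0) :
    ∃ w' : Fin 2 ⊕ Fin 2 → F, w' ≠ 0 ∧ (¬ ∃ x y : F, w' = x • u + y • (D.θ *ᵥ u)) ∧
      (¬ ∃ x y : F, w = x • w' + y • (D.θ *ᵥ w')) := by
  obtain ⟨a, ha⟩ := QK8_proper u (D.θ *ᵥ u)
  obtain ⟨b, hb⟩ := QK8_proper w (D.θ *ᵥ w)
  obtain ⟨w', hw'u, hw'w⟩ : ∃ w' : Fin 2 ⊕ Fin 2 → F,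
      w' ∉ Submodule.span F ({u, D.θ *ᵥ u} : Set (Fin 2 ⊕ Fin 2 → F)) ∧
      w' ∉ Submodule.span F ({w, D.θ *ᵥ w} : Set (Fin 2 ⊕ Fin 2 → F)) := by
    by_cases ha' : a ∈ Submodule.span F ({w, D.θ *ᵥ w} : Set (Fin 2 ⊕ Fin 2 → F))
    · by_cases hb' : b ∈ Submodule.span F ({u, D.θ *ᵥ u} : Set (Fin 2 ⊕ Fin 2 → F))
      · refine ⟨a + b, fun h => ha ?_, fun h => hb ?_⟩
        · have := Submodule.sub_mem _ h hb'
          rwa [add_sub_cancel_right] at this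
        · have := Submodule.sub_mem _ h ha'
          rwa [add_sub_cancel_left] at this
      · exact ⟨b, hb', hb⟩
    · exact ⟨a, ha, ha'⟩
  refine ⟨w', ?_, ?_, ?_⟩
  · rintro rfl
    exact hw'u (Submodule.zero_mem _)
  · rintro ⟨x, y, hxy⟩
    apply hw'u
    rw [Submodule.mem_span_pair]
    exact ⟨x, y, hxy.symm⟩
  · intro h
    obtain ⟨x, y, hxy⟩ := QK_symm h2 D w w' hw h
    apply hw'w
    rw [Submodule.mem_span_pair]
    exact ⟨x, y, hxy.symm⟩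

end Cfsg.Agent.Lib.Helper96.SpRow
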