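import Cfsg.Agent.Lib.Helper96.SpRow.QKBase
import Cfsg.Agent.Lib.Helper97.SpRow.QK5

set_option autoImplicit false
set_option linter.unusedSectionVars false

/-! # SpRow farm (helper94, S5789), piece [QK6] -/

namespace Cfsg.Agent.Lib.Helper96.SpRow

open Cfsg Cfsg.Geo Matrix Cfsg.Agent.Lib.Helper94.SpRow
open scoped MatrixGroups

variable {F : Type*} [Field F]

theorem ktv_trans (h2 : (2 : F) = 0) {K : Subalgebra F (Matrix (Fin 2 ⊕ Fin 2) (Fin 2 ⊕ Fin 2) F)}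
    (D : KD K) (u w : Fin 2 ⊕ Fin 2 → F) (hu : u ≠ 0)
    (hw : ¬ ∃ x y : F, w = x • u + y • (D.θ *ᵥ u)) :
    ∃ y z : F, ((U3 (w + u) (D.θ *ᵥ (w + u)) (D.a * y + D.b * z) y z : GL (Fin 2 ⊕ Fin 2) F) :
      Matrix _ _ F) *ᵥ u = w := by
  obtain ⟨v, hv⟩ : ∃ v, v = w + u := ⟨_, rfl⟩
  rw [← hv]
  have hv0 : v ≠ 0 := by
    intro h0
    apply hw
    refine ⟨-1, 0, ?_⟩
    rw [h0] at hv
    rw [zero_smul, add_zero, neg_one_smul]
    exact eq_neg_of_add_eq_zero_left hv.symm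
  have hvθ : sympForm 2 F v (D.θ *ᵥ v) = 0 := by rw [sf_swap, D.alt, neg_zero]
  obtain ⟨P, hP⟩ : ∃ P, P = sympForm 2 F u v := ⟨_, rfl⟩
  obtain ⟨R, hR⟩ : ∃ R, R = sympForm 2 F u (D.θ *ᵥ v) := ⟨_, rfl⟩
  have hΔ : R ^ 2 + D.a * R * P + D.b * P ^ 2 ≠ 0 := by
    intro hΔ
    obtain ⟨hR0, hP0⟩ := D.aniso R P hΔ
    have h3 := Cfsg.Agent.Lib.Helper97.SpRow.lagr v (D.θ *ᵥ v) u hvθ
      (fun x y h => QK_ind h2 D hv0 x y h) (by rw [← hP, hP0]) (by rw [← hR, hR0])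
    obtain ⟨x, y, hxy⟩ := QK_symm h2 D u v hu h3
    apply hw
    refine ⟨x - 1, y, ?_⟩
    have h4 : w = v - u := by rw [hv]; abel
    rw [h4, hxy]
    module
  refine ⟨R / (R ^ 2 + D.a * R * P + D.b * P ^ 2), P / (R ^ 2 + D.a * R * P + D.b * P ^ 2), ?_⟩
  rw [U3_mulVec hvθ, ← hP, ← hR]
  have h5 : (D.a * (R / (R ^ 2 + D.a * R * P + D.b * P ^ 2)) +
      D.b * (P / (R ^ 2 + D.a * R * P + D.b * P ^ 2))) * P +
      R / (R ^ 2 + D.a * R * P + D.b * P ^ 2) * R = 1 := by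
    have : (D.a * (R / (R ^ 2 + D.a * R * P + D.b * P ^ 2)) +
      D.b * (P / (R ^ 2 + D.a * R * P + D.b * P ^ 2))) * P +
      R / (R ^ 2 + D.a * R * P + D.b * P ^ 2) * R =
      (R ^ 2 + D.a * R * P + D.b * P ^ 2) / (R ^ 2 + D.a * R * P + D.b * P ^ 2) := by ring
    rw [this, div_self hΔ]
  have h6 : R / (R ^ 2 + D.a * R * P + D.b * P ^ 2) * P +
      P / (R ^ 2 + D.a * R * P + D.b * P ^ 2) * R = 0 := by
    have : R / (R ^ 2 + D.a * R * P + D.b * P ^ 2) * P +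
      P / (R ^ 2 + D.a * R * P + D.b * P ^ 2) * R =
      2 * (R * P / (R ^ 2 + D.a * R * P + D.b * P ^ 2)) := by ring
    rw [this, h2, zero_mul]
  rw [h5, h6, one_smul, zero_smul, add_zero, hv]
  have h7 : u + (w + u) = w + (2 : F) • u := by module
  rw [h7, h2, zero_smul, add_zero]

end Cfsg.Agent.Lib.Helper96.SpRow
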