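import Mathlib

set_option autoImplicit false

/-! # SpRow farm (helper94, S5789), piece [QP4] -/

namespace Cfsg.Agent.Lib.Helper96.SpRow

variable {F : Type*} [Field F]

theorem QP4_subalgebra_dichotomy [Fintype F] (F₀ : Subfield F) (r : ℕ) (hr : r.Prime)
    (hcard : Fintype.card F = Nat.card F₀ ^ r) (S : Subalgebra F₀ F) : S = ⊥ ∨ S = ⊤ := by
  have hfr : Module.finrank F₀ F = r := by
    have := Fintype.ofFinite F₀
    have h1 := Module.card_eq_pow_finrank (K := F₀) (V := F)
    rw [hcard, Nat.card_eq_fintype_card] at h1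
    exact (Nat.pow_right_injective (Fintype.one_lt_card (α := F₀)) h1).symm
  have := Subalgebra.isSimpleOrder_of_finrank_prime F₀ F (by rw [hfr]; exact hr)
  exact eq_bot_or_eq_top S

theorem dichotomy [Fintype F] (h2 : (2 : F) = 0) (F₀ : Subfield F) (r : ℕ) (hr : r.Prime)
    (hc : Fintype.card F = Nat.card F₀ ^ r) (L : F → Prop) (h0 : ∀ x ∈ F₀, L x)
    (hadd : ∀ x y, L x → L y → L (x + y)) (hmul : ∀ a c, L a → L c → L (a * c ^ 2)) :
    (∀ x, L x → x ∈ F₀) ∨ (∀ x, L x) := by
  classical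
  have h1 : L 1 := h0 1 F₀.one_mem
  have hsq : ∀ c, L c → L (c ^ 2) := by
    intro c hc'
    have := hmul 1 c h1 hc'
    rwa [one_mul] at this
  have hinj : Function.Injective (fun c : {x : F // L x} => (⟨c.1 ^ 2, hsq c.1 c.2⟩ : {x : F // L x})) := by
    intro x y hxy
    have h3 : x.1 ^ 2 = y.1 ^ 2 := congrArg Subtype.val hxy
    have h4 : (x.1 - y.1) ^ 2 = 0 := by
      have : (x.1 - y.1) ^ 2 = x.1 ^ 2 + y.1 ^ 2 - 2 * (x.1 * y.1) := by ring
      rw [this, h2, h3, zero_mul, sub_zero, ← two_mul, h2, zero_mul]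
    have h5 : x.1 - y.1 = 0 := by simpa using h4
    exact Subtype.ext (sub_eq_zero.1 h5)
  have hsurj := Finite.injective_iff_surjective.1 hinj
  have hmul' : ∀ a c, L a → L c → L (a * c) := by
    intro a c ha hc'
    obtain ⟨d, hd⟩ := hsurj ⟨c, hc'⟩
    have h3 : d.1 ^ 2 = c := congrArg Subtype.val hd
    rw [← h3]
    exact hmul a d.1 ha d.2
  let S : Subalgebra F₀ F :=
    { carrier := {x | L x}
      mul_mem' := fun {a b} ha hb => hmul' a b ha hb
      add_mem' := fun {a b} ha hb => hadd a b ha hb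
      algebraMap_mem' := fun x => h0 x.1 x.2 }
  rcases QP4_subalgebra_dichotomy F₀ r hr hc S with hS | hS
  · left
    intro x hx
    have h3 : x ∈ S := hx
    rw [hS, Algebra.mem_bot] at h3
    obtain ⟨y, rfl⟩ := h3
    exact y.2
  · right
    intro x
    have h3 : x ∈ S := by rw [hS]; exact Algebra.mem_top
    exact h3

end Cfsg.Agent.Lib.Helper96.SpRow
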