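import Cfsg.Agent.Lib.Helper94.SpRow.Defs4

set_option autoImplicit false
set_option linter.unusedSectionVars false

/-! # SpRow farm (helper94, S5789): common lemmas for [QK6], [QK8] -/

namespace Cfsg.Agent.Lib.Helper96.SpRow

open Cfsg Cfsg.Geo Matrix Cfsg.Agent.Lib.Helper94.SpRow
open scoped MatrixGroups

variable {F : Type*} [Field F]

theorem QK_sq_mulVec {K : Subalgebra F (Matrix (Fin 2 ⊕ Fin 2) (Fin 2 ⊕ Fin 2) F)} (D : KD K)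
    (v : Fin 2 ⊕ Fin 2 → F) : D.θ *ᵥ (D.θ *ᵥ v) = D.a • (D.θ *ᵥ v) + D.b • v := by
  rw [Matrix.mulVec_mulVec, D.sq, Matrix.add_mulVec, Matrix.smul_mulVec, Matrix.smul_mulVec,
    Matrix.one_mulVec]

/-- multiplying `u = (x + y θ) v` by the conjugate `x + y (a + θ)` -/
theorem QK_inv (h2 : (2 : F) = 0) {K : Subalgebra F (Matrix (Fin 2 ⊕ Fin 2) (Fin 2 ⊕ Fin 2) F)}
    (D : KD K) (u v : Fin 2 ⊕ Fin 2 → F) (x y : F) (h : u = x • v + y • (D.θ *ᵥ v)) :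
    (x + D.a * y) • u + y • (D.θ *ᵥ u) = (x ^ 2 + D.a * x * y + D.b * y ^ 2) • v := by
  have h3 : D.θ *ᵥ u = (x + D.a * y) • (D.θ *ᵥ v) + (D.b * y) • v := by
    rw [h, Matrix.mulVec_add, Matrix.mulVec_smul, Matrix.mulVec_smul, QK_sq_mulVec]
    module
  rw [h3, h]
  have h4 : (x + D.a * y) • (x • v + y • (D.θ *ᵥ v)) +
      y • ((x + D.a * y) • (D.θ *ᵥ v) + (D.b * y) • v) =
      (x ^ 2 + D.a * x * y + D.b * y ^ 2) • v + (2 * ((x + D.a * y) * y)) • (D.θ *ᵥ v) := by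
    module
  rw [h4, h2, zero_mul, zero_smul, add_zero]

/-- if `u = (x + y θ) v ≠ 0` then `v` is on the `K`-line of `u` -/
theorem QK_symm (h2 : (2 : F) = 0) {K : Subalgebra F (Matrix (Fin 2 ⊕ Fin 2) (Fin 2 ⊕ Fin 2) F)}
    (D : KD K) (u v : Fin 2 ⊕ Fin 2 → F) (hu : u ≠ 0)
    (h : ∃ x y : F, u = x • v + y • (D.θ *ᵥ v)) : ∃ x y : F, v = x • u + y • (D.θ *ᵥ u) := by
  obtain ⟨x, y, hxy⟩ := h
  have h3 := QK_inv h2 D u v x y hxy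
  have hN : x ^ 2 + D.a * x * y + D.b * y ^ 2 ≠ 0 := by
    intro hN
    obtain ⟨rfl, rfl⟩ := D.aniso x y hN
    apply hu
    rw [hxy]; simp
  refine ⟨(x ^ 2 + D.a * x * y + D.b * y ^ 2)⁻¹ * (x + D.a * y),
    (x ^ 2 + D.a * x * y + D.b * y ^ 2)⁻¹ * y, ?_⟩
  rw [mul_smul, mul_smul, ← smul_add, h3, smul_smul, inv_mul_cancel₀ hN, one_smul]

theorem QK_ind (h2 : (2 : F) = 0) {K : Subalgebra F (Matrix (Fin 2 ⊕ Fin 2) (Fin 2 ⊕ Fin 2) F)}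
    (D : KD K) {v : Fin 2 ⊕ Fin 2 → F} (hv : v ≠ 0) (x y : F) (h : x • v + y • (D.θ *ᵥ v) = 0) :
    x = 0 ∧ y = 0 := by
  have h3 := QK_inv h2 D 0 v x y h.symm
  rw [Matrix.mulVec_zero, smul_zero, smul_zero, add_zero] at h3
  rcases smul_eq_zero.1 h3.symm with hN | hN
  · exact D.aniso x y hN
  · exact absurd hN hv

end Cfsg.Agent.Lib.Helper96.SpRow
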